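import Mathlib
import Cfsg.Agent.Lib.Helper74.Quad.Defs

set_option autoImplicit false

/-!
# S2787, package [ORD4]
-/

namespace Cfsg.Agent.Lib.Helper96.Quad

universe u v

section

variable {p : ℕ} {A : Type u} [CommGroup A] {M : Type v} [Group M]

/-- `m` acts on the image of `FA` through the matrix `N` -/
def ActsBy (ρ : M →* MulAut A) (FA : Multiplicative (Fin 2 → ZMod p) →* A) (m : M)
    (N : Matrix (Fin 2) (Fin 2) (ZMod p)) : Prop :=
  ∀ z : Fin 2 → ZMod p,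
    ρ m (FA (Multiplicative.ofAdd z)) = FA (Multiplicative.ofAdd (N.mulVec z))

variable {ρ : M →* MulAut A} {FA : Multiplicative (Fin 2 → ZMod p) →* A}

theorem ActsBy.mul {m m' : M} {N N' : Matrix (Fin 2) (Fin 2) (ZMod p)}
    (h : ActsBy ρ FA m N) (h' : ActsBy ρ FA m' N') : ActsBy ρ FA (m * m') (N * N') := by
  intro z
  rw [map_mul, MulAut.mul_apply, h', h, Matrix.mulVec_mulVec]

theorem ActsBy.one : ActsBy ρ FA (1 : M) 1 := by
  intro z
  simp

theorem ActsBy.pow {m : M} {N : Matrix (Fin 2) (Fin 2) (ZMod p)} (h : ActsBy ρ FA m N)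
    (k : ℕ) : ActsBy ρ FA (m ^ k) (N ^ k) := by
  induction k with
  | zero => simpa using (ActsBy.one : ActsBy ρ FA (1 : M) 1)
  | succ k ih =>
    rw [pow_succ, pow_succ]
    exact ih.mul h

theorem ActsBy.inv {m : M} {N N' : Matrix (Fin 2) (Fin 2) (ZMod p)} (h : ActsBy ρ FA m N)
    (hN : N * N' = 1) : ActsBy ρ FA m⁻¹ N' := by
  intro z
  have := h (N'.mulVec z)
  rw [Matrix.mulVec_mulVec, hN, Matrix.one_mulVec] at this
  rw [← this, map_inv, MulAut.inv_apply_self]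

end

/-- **[ORD4]** -/
theorem pkgOrd4 : Cfsg.Agent.Lib.Helper74.Quad.PkgOrd4.{u, v} := by
  intro p _ hp2 A _ M _ ρ g₁ g₂ c FA hc hinj h1 h2
  have hp : p.Prime := Fact.out
  have hc0 : (c : ZMod p) ≠ 0 := by
    rw [Ne, ZMod.natCast_eq_zero_iff]
    exact hc
  obtain ⟨d, hd⟩ : ∃ d : ℕ, d = ((c : ZMod p)⁻¹).val := ⟨_, rfl⟩
  have hdc : (d : ZMod p) * (c : ZMod p) = 1 := by
    rw [hd, ZMod.natCast_zmod_val, inv_mul_cancel₀ hc0]
  have a1 : ActsBy ρ FA g₁ !![1, (c : ZMod p); 0, 1] := fun z => h1 (Multiplicative.ofAdd z)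
  have a2 : ActsBy ρ FA g₂ !![1, 0; 1, 1] := fun z => h2 (Multiplicative.ofAdd z)
  have hpow : ∀ n : ℕ, (!![1, (c : ZMod p); 0, 1] : Matrix (Fin 2) (Fin 2) (ZMod p)) ^ n
      = !![1, (n : ZMod p) * c; 0, 1] := by
    intro n
    induction n with
    | zero => simp [Matrix.one_fin_two]
    | succ n ih =>
      rw [pow_succ, ih, Matrix.mul_fin_two]
      congr 1
      simp
      ring
  have a1d : ActsBy ρ FA (g₁ ^ d) !![1, 1; 0, 1] := by
    have := a1.pow d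
    rwa [hpow, hdc] at this
  have a2i : ActsBy ρ FA g₂⁻¹ !![1, 0; -1, 1] :=
    a2.inv (by simp [Matrix.one_fin_two])
  have aw : ActsBy ρ FA (g₁ ^ d * g₂⁻¹ * g₁ ^ d) !![0, 1; -1, 0] := by
    have := (a1d.mul a2i).mul a1d
    have e : (!![1, 1; 0, 1] * !![1, 0; -1, 1] * !![1, 1; 0, 1] :
        Matrix (Fin 2) (Fin 2) (ZMod p)) = !![0, 1; -1, 0] := by
      simp
    rwa [e] at this
  refine ⟨g₁ ^ d * g₂⁻¹ * g₁ ^ d, fun k hk => ?_⟩
  have hJk : ∀ z : Fin 2 → ZMod p,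
      ((!![0, 1; -1, 0] : Matrix (Fin 2) (Fin 2) (ZMod p)) ^ k).mulVec z = z := by
    intro z
    have := aw.pow k z
    rw [hk, MulAut.one_apply] at this
    exact (Multiplicative.ofAdd.injective (hinj this)).symm
  have hJ2 : (!![0, 1; -1, 0] : Matrix (Fin 2) (Fin 2) (ZMod p)) ^ 2 = !![-1, 0; 0, -1] := by
    simp [pow_succ]
  have hJ3 : (!![0, 1; -1, 0] : Matrix (Fin 2) (Fin 2) (ZMod p)) ^ 3 = !![0, -1; 1, 0] := by
    rw [pow_succ, hJ2]
    simp
  have hJ4 : (!![0, 1; -1, 0] : Matrix (Fin 2) (Fin 2) (ZMod p)) ^ 4 = 1 := by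
    rw [pow_succ, hJ3]
    simp [Matrix.one_fin_two]
  have hmod : (!![0, 1; -1, 0] : Matrix (Fin 2) (Fin 2) (ZMod p)) ^ k
      = !![0, 1; -1, 0] ^ (k % 4) := by
    conv_lhs => rw [← Nat.div_add_mod k 4, pow_add, pow_mul, hJ4, one_pow, one_mul]
  rw [hmod] at hJk
  have hlt : k % 4 < 4 := Nat.mod_lt _ (by norm_num)
  apply Nat.dvd_of_mod_eq_zero
  obtain ⟨r, hr⟩ : ∃ r, k % 4 = r := ⟨_, rfl⟩
  rw [hr] at hJk hlt ⊢
  have h01 : (0 : ZMod p) ≠ 1 := zero_ne_one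
  interval_cases r
  · rfl
  · exfalso
    have := congrFun (hJk ![1, 0]) 0
    rw [pow_one] at this
    simp [Matrix.mulVec, dotProduct, Fin.sum_univ_two] at this
  · exfalso
    have := congrFun (hJk ![1, 0]) 0
    rw [hJ2] at this
    simp [Matrix.mulVec, dotProduct, Fin.sum_univ_two] at this
    have h2 : ((2 : ℕ) : ZMod p) = 0 := by
      push_cast
      linear_combination (-1 : ZMod p) * this
    have := (ZMod.natCast_eq_zero_iff 2 p).mp h2
    exact hp2 ((Nat.prime_dvd_prime_iff_eq hp Nat.prime_two).mp this)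
  · exfalso
    have := congrFun (hJk ![1, 0]) 0
    rw [hJ3] at this
    simp [Matrix.mulVec, dotProduct, Fin.sum_univ_two] at this

end Cfsg.Agent.Lib.Helper96.Quad
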